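import Cfsg.Agent.H42.Bs.S35
import Cfsg.Agent.H447.Bs.OMinus

/-!
# S5733, BS35: the orthogonal case (helper42)
-/

set_option autoImplicit false

namespace Cfsg.Agent.H42.Bs

open Cfsg.Agent.H847.Bs Cfsg.Agent.H358.Bs Module
open Cfsg.Agent.LieClassical.OrthCore (O E Nondeg E_le_O)

universe u v

theorem quadMinus : QuadMinus.{u, v} := by
  refine ⟨16, ?_⟩
  intro F V _ _ _ _ _ Q j hQ hP hd hj
  have h1 := Cfsg.Agent.H447.Bs.o_minus hQ hP (by omega) hd
  have h2 := le_of_ar (m := 2 * (j : ℝ)) hj (by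
    have : (0 : ℝ) < j := by exact_mod_cast (by omega : 0 < j)
    linarith) h1
  have h4 : Nat.card {x // x ∈ (frmQ Q).Bm ∧ x ∈ nQ Q} ≤ Nat.card (frmQ Q).Bm := by
    have : Finite V := Module.finite_of_finite F
    have : Finite (V ≃ₗ[F] V) := DFunLike.finite _
    exact Nat.card_le_card_of_injective (fun x => (⟨x.1, x.2.1⟩ : (frmQ Q).Bm)) (fun x y h => by
      have := congrArg Subtype.val h
      exact Subtype.ext this)
  have h3 : (Nat.card (frmQ Q).Iso : ℝ) ≤ ((4 * j * Nat.card (frmQ Q).Bm : ℕ) : ℝ) := by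
    have h5 : (Nat.card {x // x ∈ (frmQ Q).Bm ∧ x ∈ nQ Q} : ℝ) ≤ Nat.card (frmQ Q).Bm := by exact_mod_cast h4
    have h6 : (0 : ℝ) ≤ j := Nat.cast_nonneg _
    have h7 := mul_le_mul_of_nonneg_left h5 (by linarith : (0 : ℝ) ≤ 2 * (2 * (j : ℝ)))
    push_cast
    linarith
  exact_mod_cast h3

/-- **BS35, orthogonal groups** -/
theorem s35o : S35o := blocks_omega_of quadMinus

end Cfsg.Agent.H42.Bs
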